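import Mathlib
import Cfsg.Agent.Lib.Uniq.MAlpha
import Cfsg.Agent.S1403

/-!
# Consequences of the Uniqueness Theorem for `M_α` (S1406–S1409)
-/

set_option autoImplicit false

namespace Cfsg.Agent.Lib.Uniq

open Subgroup Cfsg
open Cfsg.Agent.Lib.Core
open scoped Pointwise commutatorElement

section

variable {G : Type*} [Group G] [Finite G]

theorem uniqueMax_of_inUnique {M X : Subgroup G} (hM : IsCoatom M) (hXM : X ≤ M) (h : InUniqueMaximal X) : UniqueMax M X := by
  obtain ⟨M', hM'⟩ := exists_uniqueMax_of_inUniqueMaximal h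
  have := hM'.2.2 M hM hXM
  rwa [this]

theorem uniqueMax_mono {M X Y : Subgroup G} (h : UniqueMax M X) (hXY : X ≤ Y) (hY : Y ≤ M) : UniqueMax M Y :=
  ⟨h.1, hY, fun L hL hle => h.2.2 L hL (hXY.trans hle)⟩

theorem not_pRankLE_alphaCore (hG : IsMinSimpleOddOrder G) {M : Subgroup G} (hM : IsCoatom M) {p : ℕ} [Fact p.Prime]
    (hp : p ∈ alpha M) : ¬ PRankLE p 2 (alphaCore M) := by
  classical
  have hpp : p.Prime := Fact.out
  obtain ⟨E, hEc, hEe, hEcard⟩ := exists_elementary_of_not_pRankLE hpp hp.2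
  refine not_pRankLE_of_le_elementary (B := E.map M.subtype) ?_ ?_ ?_ ?_
  · rintro _ ⟨a, ha, rfl⟩
    refine ⟨a, mem_piCore_alpha hG hM hp ⟨1, by simpa using hEe a ha⟩, rfl⟩
  · rintro _ ⟨a, ha, rfl⟩ _ ⟨b, hb, rfl⟩
    exact congrArg Subtype.val (hEc a ha b hb)
  · rintro _ ⟨a, ha, rfl⟩
    exact congrArg Subtype.val (hEe a ha)
  · rw [Subgroup.card_map_of_injective M.subtype_injective, hEcard]
    exact Nat.pow_lt_pow_right hpp.one_lt (by norm_num)

theorem primes_alphaCore {M : Subgroup G} : ∀ p : ℕ, p.Prime → p ∣ Nat.card (alphaCore M) → p ∈ alpha M := by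
  intro p hp hd
  have e : Nat.card (alphaCore M) = Nat.card (piCore (alpha M) ↥M) :=
    Nat.card_congr ((piCore (alpha M) ↥M).equivMapOfInjective M.subtype M.subtype_injective).symm.toEquiv
  rw [e] at hd
  exact primes_piCore _ _ p hp hd

theorem not_rankLE_of_elementary {k p : ℕ} (hp : p.Prime) {F K : Subgroup G} (hFK : F ≤ K) (hFc : ∀ x ∈ F, ∀ y ∈ F, x * y = y * x)
    (hFe : ∀ x ∈ F, x ^ p = 1) (hcard : p ^ k < Nat.card F) : ¬ RankLE k K :=
  fun h => not_pRankLE_of_le_elementary hFK hFc hFe hcard (h p hp)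

/-- **S1406** -/
theorem s1406 (hG : IsMinSimpleOddOrder G) {M : Subgroup G} (hM : IsCoatom M) (X : Subgroup G) (hXM : X ≤ M)
    (hXα : ∀ p : ℕ, p.Prime → p ∣ Nat.card X → p ∉ alpha M)
    (hr : ¬ RankLE 1 ↥(alphaCore M ⊓ centralizer (X : Set G))) :
    UniqueMax M (M ⊓ centralizer (X : Set G)) := by
  classical
  obtain ⟨q, hq, F, hFle, hFc, hFe, hFcard⟩ := exists_elementary_of_not_rankLE hr
  haveI : Fact q.Prime := ⟨hq⟩
  have hFα : F ≤ alphaCore M := fun a ha => (hFle ha).1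
  have hFC : F ≤ centralizer (X : Set G) := fun a ha => (hFle ha).2
  have hαM : alphaCore M ≤ M := map_subtype_le _
  have hqα : q ∈ alpha M := by
    refine primes_alphaCore q hq ?_
    refine dvd_trans ?_ (Subgroup.card_dvd_of_le hFα)
    rw [hFcard]
    exact dvd_pow_self q (by norm_num)
  have hMt : M ≠ ⊤ := hM.1
  have hXt : X ≠ ⊤ := fun e => hMt (top_le_iff.mp (e ▸ hXM))
  have hq2 : q ≠ 2 := odd_prime_of_sigma hG (alpha_subset_sigma hG hM hqα)
  have hFp : IsPGroup q F := fun a => ⟨1, Subtype.ext (by simpa using hFe _ a.2)⟩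
  have hXN : X ≤ normalizer (alphaCore M : Set G) :=
    hXM.trans (Cfsg.Agent.Lib.OddLocal.le_normalizer_map_of_normal (M := M) (piCore (alpha M) ↥M))
  have hcop : (Nat.card X).Coprime (Nat.card (alphaCore M)) := by
    refine Nat.Coprime.symm (Nat.coprime_of_dvd fun r hr h1 h2 => ?_)
    exact hXα r hr h2 (primes_alphaCore r hr h1)
  have hFN : X ≤ normalizer (F : Set G) := by
    intro x hx
    rw [mem_normalizer_iff]
    intro a
    have hc : a ∈ F → x * a = a * x := fun ha => (mem_centralizer_iff.mp (hFC ha) x hx)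
    constructor
    · intro ha
      rw [hc ha]
      simpa using ha
    · intro ha
      have h2 : x * (x * a * x⁻¹) = (x * a * x⁻¹) * x := mem_centralizer_iff.mp (hFC ha) x hx
      have h3 : x * a * x⁻¹ = a := by
        have h5 : x⁻¹ * (x * (x * a * x⁻¹)) * x⁻¹ = x⁻¹ * ((x * a * x⁻¹) * x) * x⁻¹ := by rw [h2]
        have h6 : x⁻¹ * (x * (x * a * x⁻¹)) * x⁻¹ = x * a * x⁻¹ * x⁻¹ := by group
        have h7 : x⁻¹ * ((x * a * x⁻¹) * x) * x⁻¹ = a * x⁻¹ := by group
        rw [h6, h7] at h5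
        exact mul_right_cancel h5
      rwa [h3] at ha
  obtain ⟨P, hFP, hXP⟩ := Cfsg.Agent.Lib.Hall.exists_invariant_sylow_le X (alphaCore M) hXN hcop
    (Or.inl (isSolvable_of_ne_top hG hXt)) q F hFα hFp hFN
  have hKM : M ⊓ centralizer (X : Set G) ≤ M := inf_le_left
  have hQ3 : ¬ PRankLE q 2 ((P : Subgroup ↥(alphaCore M)).map (alphaCore M).subtype : Subgroup G) :=
    not_pRankLE_sylow P (not_pRankLE_alphaCore hG hM hqα)
  obtain ⟨Q, hQd⟩ : ∃ Q : Subgroup G, Q = (P : Subgroup ↥(alphaCore M)).map (alphaCore M).subtype := ⟨_, rfl⟩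
  rw [← hQd] at hFP hXP hQ3
  have hQp : IsPGroup q Q := by
    rw [hQd]
    exact P.isPGroup'.map _
  have hQM : Q ≤ M := by
    rw [hQd]
    exact (map_subtype_le _).trans hαM
  have hKt : M ⊓ centralizer (X : Set G) ≠ ⊤ := fun e => hMt (top_le_iff.mp (e ▸ hKM))
  have hF2 : ¬ RankLE 1 F := by
    refine not_rankLE_of_elementary hq le_rfl hFc hFe ?_
    rw [hFcard]
    exact Nat.pow_lt_pow_right hq.one_lt (by norm_num)
  have hK2 : ¬ RankLE 1 ↥(M ⊓ centralizer (X : Set G)) := by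
    refine not_rankLE_of_elementary hq (F := F) (fun a ha => ⟨hαM (hFα ha), hFC ha⟩) hFc hFe ?_
    rw [hFcard]
    exact Nat.pow_lt_pow_right hq.one_lt (by norm_num)
  by_cases hcase : ∃ x ∈ Q ⊓ centralizer (F : Set G), x ^ q = 1 ∧ x ∉ F
  · obtain ⟨x, hx, hxq, hxF⟩ := hcase
    have hxc : ∀ u ∈ F, u * x = x * u := fun u hu => mem_centralizer_iff.mp hx.2 u hu
    obtain ⟨hTc, hTe⟩ := elementary_sup hFc hFe hxc hxq
    have hC3 : ¬ RankLE 2 (centralizer (F : Set G)) := by
      refine not_rankLE_of_elementary hq (F := F ⊔ zpowers x) ?_ hTc hTe ?_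
      · refine sup_le (fun u hu => ?_) ?_
        · rw [mem_centralizer_iff]
          exact fun v hv => hFc v hv u hu
        · rw [zpowers_le]
          exact hx.2
      · have h1 := card_lt_sup_of_not_mem hxF
        rw [hFcard] at h1
        exact h1
    have hU := Cfsg.Agent.S1403.result hG F (fun e => hMt (top_le_iff.mp (e ▸ (hFα.trans hαM)))) hF2 (Or.inr hC3)
    have hUF := uniqueMax_of_inUnique hM (hFα.trans hαM) hU
    exact uniqueMax_mono hUF (fun a ha => ⟨hαM (hFα ha), hFC ha⟩) inf_le_left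
  · push Not at hcase
    have hEe : IsElementaryAbelian q F := ⟨⟨⟨fun a b => Subtype.ext (hFc _ a.2 _ b.2)⟩⟩, hFe⟩
    have hcopq : (Nat.card X).Coprime q := by
      rw [Nat.coprime_comm, Nat.Prime.coprime_iff_not_dvd hq]
      exact fun hd => hXα q hq hd hqα
    have hXC : X ≤ centralizer (Q : Set G) := by
      refine Cfsg.Agent.S1443.result q hq2 Q F X hQp hFP hEe hXP hcopq ?_
      intro x hx hxo u hu
      have hxq : x ^ q = 1 := by rw [← hxo]; exact pow_orderOf_eq_one x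
      have hxF : x ∈ F := hcase x hx hxq
      exact mem_centralizer_singleton_iff.mpr (mem_centralizer_iff.mp (hFC hxF) u hu)
    have hQK : Q ≤ M ⊓ centralizer (X : Set G) := by
      intro a ha
      refine ⟨hQM ha, ?_⟩
      show a ∈ centralizer (X : Set G)
      rw [mem_centralizer_iff]
      intro x hx
      exact (mem_centralizer_iff.mp (hXC hx) a ha).symm
    have hK3 : ¬ RankLE 2 ↥(M ⊓ centralizer (X : Set G)) :=
      fun h => hQ3 (pRankLE_mono hQK (h q hq))
    have hU := Cfsg.Agent.S1403.result hG _ hKt hK2 (Or.inl hK3)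
    exact uniqueMax_of_inUnique hM hKM hU

theorem isZGroup_of_rankLE (hG : IsMinSimpleOddOrder G) {K : Subgroup G} (h : RankLE 1 K) : IsZGroup K := by
  classical
  refine ⟨fun p hp P => ?_⟩
  haveI : Fact p.Prime := ⟨hp⟩
  by_contra hnc
  have hBnc : ¬ IsCyclic ((P : Subgroup K).map K.subtype : Subgroup G) := by
    intro hc
    apply hnc
    exact isCyclic_of_surjective _ ((P : Subgroup K).equivMapOfInjective K.subtype K.subtype_injective).symm.surjective
  have hBp : IsPGroup p ((P : Subgroup K).map K.subtype : Subgroup G) := P.isPGroup'.map _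
  have hp2 : p ≠ 2 := by
    obtain ⟨n, hn⟩ := IsPGroup.iff_card.mp hBp
    have hn0 : n ≠ 0 := by
      rintro rfl
      rw [pow_zero] at hn
      apply hBnc
      haveI : Subsingleton ((P : Subgroup K).map K.subtype : Subgroup G) := (Nat.card_eq_one_iff_unique.mp hn).1
      exact isCyclic_of_subsingleton
    refine odd_prime_of_dvd hG (dvd_trans ?_ (Subgroup.card_subgroup_dvd_card ((P : Subgroup K).map K.subtype)))
    rw [hn]
    exact dvd_pow_self p hn0
  obtain ⟨E, hEB, hEc, hEe, hEcard⟩ := exists_elementary_sq_of_not_isCyclic hp2 hBp hBnc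
  refine not_rankLE_of_elementary hp (hEB.trans (map_subtype_le _)) hEc hEe ?_ h
  rw [hEcard]
  exact Nat.pow_lt_pow_right hp.one_lt (by norm_num)

theorem centralizer_zpowers_eq (x : G) : centralizer ((zpowers x : Subgroup G) : Set G) = centralizer ({x} : Set G) := by
  ext a
  constructor
  · intro h
    rw [mem_centralizer_singleton_iff]
    exact (mem_centralizer_iff.mp h x (mem_zpowers x)).symm
  · intro h
    rw [mem_centralizer_iff]
    intro y hy
    obtain ⟨n, rfl⟩ := mem_zpowers_iff.mp hy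
    have h1 : Commute x a := (mem_centralizer_singleton_iff.mp h).symm
    exact (h1.zpow_left n).eq

theorem conj_smul_centralizer_singleton (y x : G) :
    MulAut.conj y • centralizer ({x} : Set G) = centralizer ({y * x * y⁻¹} : Set G) := by
  ext a
  rw [mem_conj_smul_iff, mem_centralizer_singleton_iff, mem_centralizer_singleton_iff]
  constructor
  · intro h
    have h1 : y * (y⁻¹ * a * y * x) * y⁻¹ = y * (x * (y⁻¹ * a * y)) * y⁻¹ := by rw [h]
    calc a * (y * x * y⁻¹) = y * (y⁻¹ * a * y * x) * y⁻¹ := by group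
      _ = y * (x * (y⁻¹ * a * y)) * y⁻¹ := h1
      _ = y * x * y⁻¹ * a := by group
  · intro h
    calc y⁻¹ * a * y * x = y⁻¹ * (a * (y * x * y⁻¹)) * y := by group
      _ = y⁻¹ * (y * x * y⁻¹ * a) * y := by rw [h]
      _ = x * (y⁻¹ * a * y) := by group

theorem uniqueMax_centralizer_of_not_zgroup (hG : IsMinSimpleOddOrder G) {M : Subgroup G} (hM : IsCoatom M) {p : ℕ} [Fact p.Prime]
    (hp : p ∉ sigma M) {x : G} (hxM : x ∈ M) (hxo : orderOf x = p)
    (h : ¬ IsZGroup ↥(alphaCore M ⊓ centralizer ({x} : Set G))) : UniqueMax M (centralizer ({x} : Set G)) := by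
  have hpp : p.Prime := Fact.out
  have hpα : p ∉ alpha M := fun h' => hp (alpha_subset_sigma hG hM h')
  have hr : ¬ RankLE 1 ↥(alphaCore M ⊓ centralizer ((zpowers x : Subgroup G) : Set G)) := by
    rw [centralizer_zpowers_eq]
    exact fun h' => h (isZGroup_of_rankLE hG h')
  have hX : ∀ r : ℕ, r.Prime → r ∣ Nat.card (zpowers x) → r ∉ alpha M := by
    intro r hr hd
    rw [Nat.card_zpowers, hxo] at hd
    have := (Nat.prime_dvd_prime_iff_eq hr hpp).mp hd
    rwa [this]
  have hU := s1406 hG hM (zpowers x) (zpowers_le.mpr hxM) hX hr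
  rw [centralizer_zpowers_eq] at hU
  have hx1 : x ≠ 1 := by
    rintro rfl
    rw [orderOf_one] at hxo
    exact hpp.one_lt.ne hxo
  have hle := UniqueMax.le_of_ne_top hG hU inf_le_right (centralizer_singleton_ne_top hG hx1)
  exact uniqueMax_mono hU inf_le_right hle

theorem mem_center_image {M : Subgroup G} (P : Subgroup M) {x : G} :
    x ∈ ((center ↥P).map P.subtype).map M.subtype ↔
      x ∈ P.map M.subtype ∧ ∀ u ∈ P.map M.subtype, u * x = x * u := by
  constructor
  · rintro ⟨_, ⟨c, hc, rfl⟩, rfl⟩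
    refine ⟨⟨c.1, c.2, rfl⟩, ?_⟩
    rintro _ ⟨v, hv, rfl⟩
    have h1 := (Subgroup.mem_center_iff.mp hc) ⟨v, hv⟩
    exact congrArg (fun w : ↥P => ((w : M) : G)) h1
  · rintro ⟨⟨w, hw, rfl⟩, h⟩
    refine ⟨w, ⟨⟨w, hw⟩, ?_, rfl⟩, rfl⟩
    show (⟨w, hw⟩ : ↥P) ∈ center ↥P
    rw [Subgroup.mem_center_iff]
    intro v
    exact Subtype.ext (Subtype.ext (h _ ⟨v.1, v.2, rfl⟩))

theorem conj_mem_center_image {M : Subgroup G} (P : Subgroup M) {x y : G}
    (hy : y ∈ normalizer ((P.map M.subtype : Subgroup G) : Set G))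
    (hx : x ∈ ((center ↥P).map P.subtype).map M.subtype) :
    y * x * y⁻¹ ∈ ((center ↥P).map P.subtype).map M.subtype := by
  rw [mem_center_image] at hx ⊢
  obtain ⟨hx1, hx2⟩ := hx
  refine ⟨(mem_normalizer_iff.mp hy _).mp hx1, fun u hu => ?_⟩
  have h1 : y⁻¹ * u * y ∈ P.map M.subtype := by
    have := (mem_normalizer_iff.mp (inv_mem hy) u).mp hu
    simpa using this
  have h2 := hx2 _ h1
  calc u * (y * x * y⁻¹) = y * ((y⁻¹ * u * y) * x) * y⁻¹ := by group
    _ = y * (x * (y⁻¹ * u * y)) * y⁻¹ := by rw [h2]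
    _ = y * x * y⁻¹ * u := by group

theorem exists_center_image_order {M : Subgroup G} {p : ℕ} [Fact p.Prime] (hpM : p ∣ Nat.card M) (P : Sylow p M) :
    ∃ x, x ∈ ((center ↥(P : Subgroup M)).map (P : Subgroup M).subtype).map M.subtype ∧ orderOf x = p := by
  have hpp : p.Prime := Fact.out
  haveI : Nontrivial ↥(P : Subgroup M) := (Subgroup.nontrivial_iff_ne_bot _).mpr (P.ne_bot_of_dvd_card hpM)
  haveI := P.isPGroup'.center_nontrivial
  have hd : p ∣ Nat.card (center ↥(P : Subgroup M)) := by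
    obtain ⟨n, hn⟩ := IsPGroup.iff_card.mp (P.isPGroup'.to_subgroup (center _))
    have hn0 : n ≠ 0 := by
      rintro rfl
      rw [pow_zero] at hn
      exact Finite.one_lt_card.ne' hn
    rw [hn]
    exact dvd_pow_self p hn0
  obtain ⟨c, hc⟩ := exists_prime_orderOf_dvd_card' p hd
  refine ⟨((c : ↥(P : Subgroup M)) : M), ⟨_, ⟨c, c.2, rfl⟩, rfl⟩, ?_⟩
  have e1 : orderOf (((c : ↥(P : Subgroup M)) : M) : G) = orderOf ((c : ↥(P : Subgroup M)) : M) := Subgroup.orderOf_coe _
  have e2 : orderOf ((c : ↥(P : Subgroup M)) : M) = orderOf (c : ↥(P : Subgroup M)) := Subgroup.orderOf_coe _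
  have e3 : orderOf (c : ↥(P : Subgroup M)) = orderOf c := Subgroup.orderOf_coe _
  have e4 := (e1.trans e2).trans e3
  exact e4.trans hc

/-- **S1407** -/
theorem s1407 (hG : IsMinSimpleOddOrder G) {M : Subgroup G} (hM : IsCoatom M) {p : ℕ} [Fact p.Prime]
    (hpM : p ∣ Nat.card M) (hp : p ∉ sigma M) (P : Sylow p M) :
    ∃ x : G, x ∈ ((center ↥(P : Subgroup M)).map (P : Subgroup M).subtype).map M.subtype ∧ orderOf x = p ∧
        IsZGroup ↥(alphaCore M ⊓ centralizer ({x} : Set G)) ∧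
        ¬ (centralizer ({x} : Set G) ≤ M ∧ ∀ L : Subgroup G, IsCoatom L → centralizer ({x} : Set G) ≤ L → L = M) := by
  classical
  have hpp : p.Prime := Fact.out
  by_contra hno
  push Not at hno
  have hU : ∀ x, x ∈ ((center ↥(P : Subgroup M)).map (P : Subgroup M).subtype).map M.subtype → orderOf x = p →
      UniqueMax M (centralizer ({x} : Set G)) := by
    intro x hx hxo
    have hxM : x ∈ M := by
      obtain ⟨w, -, rfl⟩ := hx
      exact w.2
    by_cases hz : IsZGroup ↥(alphaCore M ⊓ centralizer ({x} : Set G))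
    · obtain ⟨h1, h2⟩ := hno x hx hxo hz
      exact ⟨hM, h1, h2⟩
    · exact uniqueMax_centralizer_of_not_zgroup hG hM hp hxM hxo hz
  obtain ⟨x, hx, hxo⟩ := exists_center_image_order hpM P
  have hM1 : M ≠ ⊥ := by
    rintro e
    rw [e, Subgroup.card_bot] at hpM
    exact hpp.one_lt.ne' (Nat.dvd_one.mp hpM)
  have hNM : normalizer (M : Set G) = M := normalizer_eq_of_coatom' hG hM hM1 hM.1 le_normalizer
  apply hp
  refine ⟨hpp, hpM, P, ?_⟩
  intro y hy
  have h1 := hU x hx hxo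
  have h2 : y * x * y⁻¹ ∈ ((center ↥(P : Subgroup M)).map (P : Subgroup M).subtype).map M.subtype :=
    conj_mem_center_image _ hy hx
  have hyo : orderOf (y * x * y⁻¹) = p := by
    have := MulEquiv.orderOf_eq (MulAut.conj y) x
    rw [MulAut.conj_apply] at this
    rw [this, hxo]
  have h3 := hU _ h2 hyo
  have h4 := h1.conj y
  rw [conj_smul_centralizer_singleton] at h4
  have h5 : MulAut.conj y • M = M := (h3.2.2 _ h4.1 h4.2.1)
  rw [← hNM]
  exact mem_normalizer_of_conj_smul_eq h5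

/-- second half of **S1408** -/
theorem s1408_maximal (hG : IsMinSimpleOddOrder G) {M : Subgroup G} (hM : IsCoatom M) {p : ℕ} [Fact p.Prime]
    (hr2 : PRankLE p 2 M) {A : Subgroup G} (hAM : A ≤ M) (hAe : IsElementaryAbelian p A) (hAc : Nat.card A = p ^ 2)
    {B : Subgroup G} (hBe : IsElementaryAbelian p B) (hAB : A ≤ B) : B = A := by
  classical
  have hpp : p.Prime := Fact.out
  by_contra hne
  have hlt : A < B := lt_of_le_of_ne hAB (Ne.symm hne)
  have hcl := card_lt_of_lt' hlt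
  rw [hAc] at hcl
  have hBc : ∀ x ∈ B, ∀ y ∈ B, x * y = y * x := fun x hx y hy => congrArg Subtype.val (hBe.1.is_comm.comm (⟨x, hx⟩ : B) ⟨y, hy⟩)
  have hC3 : ¬ RankLE 2 (centralizer (A : Set G)) := by
    refine not_rankLE_of_elementary hpp (F := B) ?_ hBc hBe.2 hcl
    intro b hb
    rw [mem_centralizer_iff]
    exact fun a ha => hBc a (hAB ha) b hb
  have hAc2 : ∀ x ∈ A, ∀ y ∈ A, x * y = y * x := fun x hx y hy => congrArg Subtype.val (hAe.1.is_comm.comm (⟨x, hx⟩ : A) ⟨y, hy⟩)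
  have hA2 : ¬ RankLE 1 A := by
    refine not_rankLE_of_elementary hpp le_rfl hAc2 hAe.2 ?_
    rw [hAc]
    exact Nat.pow_lt_pow_right hpp.one_lt (by norm_num)
  have hAt : A ≠ ⊤ := fun e => hM.1 (top_le_iff.mp (e ▸ hAM))
  have hU := uniqueMax_of_inUnique hM hAM (Cfsg.Agent.S1403.result hG A hAt hA2 (Or.inr hC3))
  have hA1 : A ≠ ⊥ := ne_bot_of_uniqueMax hG hU
  have hCM := UniqueMax.le_of_ne_top hG hU
    (show A ≤ centralizer (A : Set G) from fun a ha => mem_centralizer_iff.mpr (fun b hb => hAc2 b hb a ha))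
    (centralizer_ne_top hG hA1)
  have hBM : B ≤ M := by
    intro b hb
    refine hCM (mem_centralizer_iff.mpr fun a ha => hBc a (hAB ha) b hb)
  have := card_le_of_pRankLE hBM hBc hBe.2 hr2
  omega

/-- **S1408** -/
theorem s1408 (hG : IsMinSimpleOddOrder G) {M : Subgroup G} (hM : IsCoatom M) {p : ℕ} [Fact p.Prime]
    (hr2 : PRankLE p 2 M) (hr1 : ¬ PRankLE p 1 M) :
    ¬ IsIdealPrime p G ∧ ∀ A : Subgroup G, A ≤ M → IsElementaryAbelian p A → Nat.card A = p ^ 2 →
        ∀ B : Subgroup G, IsElementaryAbelian p B → A ≤ B → B = A := by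
  classical
  have hpp : p.Prime := Fact.out
  refine ⟨?_, fun A hAM hAe hAc B hBe hAB => s1408_maximal hG hM hr2 hAM hAe hAc hBe hAB⟩
  rintro ⟨-, -, hI⟩
  obtain ⟨E, hEM, hEc, hEe, hEcard⟩ := exists_elementary_le hpp hr1
  have hEp : IsPGroup p E := fun a => ⟨1, Subtype.ext (by simpa using hEe _ a.2)⟩
  obtain ⟨S, hES⟩ := hEp.exists_le_sylow
  have hEE : IsElementaryAbelian p E := ⟨⟨⟨fun a b => Subtype.ext (hEc _ a.2 _ b.2)⟩⟩, hEe⟩
  obtain ⟨B, -, hBe, hlt⟩ := hI S E hES hEE hEcard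
  exact hlt.ne (s1408_maximal hG hM hr2 hEM hEE hEcard hBe hlt.le).symm

/-- inside a group of `p`-rank one, an element of order dividing `p` commuting with a
subgroup of order `p` lies in it. -/
theorem mem_of_rank_one {M F : Subgroup G} {p : ℕ} (hp : p.Prime) (hr : PRankLE p 1 M) (hFM : F ≤ M)
    (hFc : ∀ a ∈ F, ∀ b ∈ F, a * b = b * a) (hFe : ∀ a ∈ F, a ^ p = 1) (hcard : Nat.card F = p) {b : G} (hb : b ∈ M)
    (hbo : b ^ p = 1) (hFb : ∀ u ∈ F, u * b = b * u) : b ∈ F := by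
  by_contra hbF
  obtain ⟨hTc, hTe⟩ := elementary_sup hFc hFe hFb hbo
  have h1 := card_lt_sup_of_not_mem hbF
  have h2 := card_le_of_pRankLE (sup_le hFM (zpowers_le.mpr hb)) hTc hTe hr
  rw [hcard] at h1
  rw [pow_one] at h2
  omega

/-- **S1409** -/
theorem s1409 (hG : IsMinSimpleOddOrder G) {M : Subgroup G} (hM : IsCoatom M) {p : ℕ} [Fact p.Prime]
    (hp : p ∉ sigma M) (X : Subgroup G) (hX : Nat.card X = p) (hNX : normalizer (X : Set G) ≤ M) :
    (PRankLE p 2 M ∧ ¬ PRankLE p 1 M) ∧ ¬ IsIdealPrime p G ∧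
      ∃ A : Subgroup G, IsElementaryAbelian p A ∧ Nat.card A = p ^ 2 ∧ X ≤ A := by
  classical
  have hpp : p.Prime := Fact.out
  have hr2 : PRankLE p 2 M := by
    by_contra hr
    exact hp (alpha_subset_sigma hG hM ⟨hpp, hr⟩)
  have hXM : X ≤ M := le_normalizer.trans hNX
  have hXp : IsPGroup p X := IsPGroup.of_card (n := 1) (by rw [hX, pow_one])
  have hX'p : IsPGroup p (X.subgroupOf M) := isPGroup_subgroupOf hXp
  obtain ⟨P, hXP'⟩ := hX'p.exists_le_sylow
  have hXP : X ≤ (P : Subgroup M).map M.subtype := by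
    intro x hx
    exact ⟨⟨x, hXM hx⟩, hXP' (by simpa [mem_subgroupOf] using hx), rfl⟩
  have hpM : p ∣ Nat.card M := by
    rw [← hX]
    exact Subgroup.card_dvd_of_le hXM
  obtain ⟨z, hz, hzo⟩ := exists_center_image_order hpM P
  have hzc := (mem_center_image _).mp hz
  have hzM : z ∈ M := (map_subtype_le _) hzc.1
  have hzp : z ^ p = 1 := by
    rw [← hzo]
    exact pow_orderOf_eq_one z
  haveI hXcyc : IsCyclic X := isCyclic_of_prime_card (p := p) hX
  have hXc : ∀ a ∈ X, ∀ b ∈ X, a * b = b * a := by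
    intro a ha b hb
    exact congrArg Subtype.val ((IsCyclic.isMulCommutative (α := X)).is_comm.comm ⟨a, ha⟩ ⟨b, hb⟩)
  have hXe : ∀ a ∈ X, a ^ p = 1 := by
    intro a ha
    have := pow_card_eq_one' (x := (⟨a, ha⟩ : X))
    rw [hX] at this
    simpa using congrArg Subtype.val this
  have hr1 : ¬ PRankLE p 1 M := by
    intro hr1
    have hzX : z ∈ X := mem_of_rank_one hpp hr1 hXM hXc hXe hX hzM hzp (fun u hu => hzc.2 u (hXP hu))
    have hXz : X = zpowers z := by
      refine (Subgroup.eq_of_le_of_card_ge (zpowers_le.mpr hzX) ?_).symm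
      rw [hX, Nat.card_zpowers, hzo]
    apply hp
    refine ⟨hpp, hpM, P, ?_⟩
    intro y hy
    apply hNX
    have hb := conj_mem_center_image _ hy hz
    have hbc := (mem_center_image _).mp hb
    have hbX : y * z * y⁻¹ ∈ X := by
      refine mem_of_rank_one hpp hr1 hXM hXc hXe hX ((map_subtype_le _) hbc.1) ?_ (fun u hu => hbc.2 u (hXP hu))
      rw [conj_pow, hzp]
      group
    have hle : MulAut.conj y • X ≤ X := by
      intro a ha
      rw [mem_conj_smul_iff, hXz] at ha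
      obtain ⟨n, hn⟩ := mem_zpowers_iff.mp ha
      have e : a = (y * z * y⁻¹) ^ n := by
        rw [conj_zpow, hn]
        group
      rw [e]
      exact zpow_mem hbX n
    refine mem_normalizer_of_conj_smul_eq (Subgroup.eq_of_le_of_card_ge hle ?_)
    rw [card_conj_smul]
  refine ⟨⟨hr2, hr1⟩, (s1408 hG hM hr2 hr1).1, ?_⟩
  have hex : ∃ e, e ∈ (P : Subgroup M).map M.subtype ∧ e ∉ X ∧ e ^ p = 1 ∧ ∀ u ∈ X, u * e = e * u := by
    by_cases hzX : z ∈ X
    · obtain ⟨E, hEP, -, hEe, hEcard⟩ := exists_elementary_le hpp (not_pRankLE_sylow P hr1)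
      have hEX : ¬ E ≤ X := by
        intro hle
        have := Nat.le_of_dvd (by rw [hX]; exact hpp.pos) (Subgroup.card_dvd_of_le hle)
        rw [hX, hEcard] at this
        have h2 : p ^ 1 < p ^ (1 + 1) := Nat.pow_lt_pow_right hpp.one_lt (by norm_num)
        rw [pow_one] at h2
        omega
      obtain ⟨e, heE, heX⟩ := SetLike.not_le_iff_exists.mp hEX
      refine ⟨e, hEP heE, heX, hEe e heE, ?_⟩
      have hXz : X = zpowers z := by
        refine (Subgroup.eq_of_le_of_card_ge (zpowers_le.mpr hzX) ?_).symm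
        rw [hX, Nat.card_zpowers, hzo]
      intro u hu
      rw [hXz] at hu
      obtain ⟨n, rfl⟩ := mem_zpowers_iff.mp hu
      have h1 : Commute z e := (hzc.2 e (hEP heE)).symm
      exact (h1.zpow_left n).eq
    · exact ⟨z, hzc.1, hzX, hzp, fun u hu => hzc.2 u (hXP hu)⟩
  obtain ⟨e, heP, heX, hep, hec⟩ := hex
  obtain ⟨hTc, hTe⟩ := elementary_sup hXc hXe hec hep
  have h1 := card_lt_sup_of_not_mem heX
  rw [hX] at h1
  have hAM : X ⊔ zpowers e ≤ M := sup_le hXM (zpowers_le.mpr ((map_subtype_le _) heP))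
  have h2 := card_le_of_pRankLE hAM hTc hTe hr2
  refine ⟨X ⊔ zpowers e, ⟨⟨⟨fun a b => Subtype.ext (hTc _ a.2 _ b.2)⟩⟩, hTe⟩, ?_, le_sup_left⟩
  have hAp : IsPGroup p ↥(X ⊔ zpowers e) := fun a => ⟨1, Subtype.ext (by simpa using hTe _ a.2)⟩
  obtain ⟨n, hn⟩ := IsPGroup.iff_card.mp hAp
  rw [hn] at h1 h2 ⊢
  have hn2 : n ≤ 2 := (Nat.pow_le_pow_iff_right hpp.one_lt).mp h2
  have hn1 : 1 < n := by
    have : p ^ 1 < p ^ n := by simpa using h1
    exact (Nat.pow_lt_pow_iff_right hpp.one_lt).mp this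
  have : n = 2 := by omega
  rw [this]

end

end Cfsg.Agent.Lib.Uniq
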